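import Mathlib
import Cfsg.Agent.H702.E4.Test
import Cfsg.Agent.Blocks.Orthogonality
import Cfsg.Agent.Blocks.Osima
import Cfsg.Agent.Blocks.PrincipalSection

/-!
# S4933, pairs with `|P| = p ^ 3`: the mixed moment test of helper994 (helper702)

`z` central of order `p` in `R` as in `Loc`, `a` another rational element of order `p`: if the principal block has only
characters of degree prime to `p` then `p ^ 2 ∣ N2(z) - N2(a) - 2 D`, `N2(g)` the number of pairs in `D = z^G` with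
product `g`.
-/

set_option autoImplicit false
set_option linter.unusedSectionVars false

namespace Cfsg.Agent.H702.E4

open Cfsg Cfsg.Agent.Characters Cfsg.Agent.Characters.Core Cfsg.Agent.Characters.ClassMul Subgroup
open scoped ComplexConjugate BigOperators

universe u

variable {G : Type u} [Group G] [Finite G]

theorem p_dvd {p : ℕ} [hp : Fact p.Prime] {a : G} (ha : orderOf a = p)
    (hrat : ∀ k : ℕ, ¬ p ∣ k → IsConj a (a ^ k)) {χ : G → ℂ} (hχ : IsCharacter G χ) {d Y : ℤ} (hd : χ 1 = d)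
    (hY : χ a = Y) : (p : ℤ) ∣ d - Y := by
  classical
  have _ := Fintype.ofFinite (zpowers a)
  obtain ⟨n, hn⟩ := sum_eq_card (isCharacter_comp (zpowers a).subtype hχ)
  have hn' : ∑ b : zpowers a, χ b = (Nat.card (zpowers a) : ℂ) * n := hn
  rw [sum_zpowers ha hrat hχ, Nat.card_zpowers, ha, hd, hY] at hn'
  have h : d + ((p : ℤ) - 1) * Y = p * n := by exact_mod_cast hn'
  exact ⟨n - Y, by linear_combination h⟩

theorem mixed_moment {z a : G} (hz1 : z ≠ 1) (hza : ¬ IsConj z a) [Fintype (IrrCharacter G)]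
    {X Y w d : IrrCharacter G → ℤ} {D N2 Na : ℕ} (B : Set (IrrCharacter G)) [DecidablePred (· ∈ B)]
    (hB : ∀ χ, χ ∉ B → X χ = 0) (hBY : ∑ χ : IrrCharacter G with χ ∈ B, (d χ : ℂ) * Y χ = 0)
    (hX : ∀ χ : IrrCharacter G, (χ : G → ℂ) z = X χ) (hY : ∀ χ : IrrCharacter G, (χ : G → ℂ) a = Y χ)
    (hd : ∀ χ : IrrCharacter G, (χ : G → ℂ) 1 = d χ)
    (hD : (centralizer ({z} : Set G)).index = D)
    (hw : ∀ χ : IrrCharacter G, w χ * d χ = D * X χ)
    (h2 : Nat.card {x : G × G // IsConj z x.1 ∧ IsConj z x.2 ∧ x.1 * x.2 = z} = N2)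
    (ha : Nat.card {x : G × G // IsConj z x.1 ∧ IsConj z x.2 ∧ x.1 * x.2 = a} = Na) :
    ∑ χ : IrrCharacter G with χ ∈ B, d χ * (D - w χ) ^ 2 * (X χ - Y χ) = Nat.card G * (N2 - Na - 2 * D) := by
  classical
  have hG : (Nat.card G : ℂ) ≠ 0 := by exact_mod_cast Nat.card_pos.ne'
  have hD0 : (D : ℂ) ≠ 0 := by
    rw [← hD]
    exact_mod_cast (centralizer ({z} : Set G)).index_ne_zero_of_finite
  have hd0 : ∀ χ : IrrCharacter G, (d χ : ℂ) ≠ 0 := fun χ => by rw [← hd]; exact isIrr_apply_one_ne_zero χ.2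
  have hX' : ∀ χ : IrrCharacter G, (X χ : ℂ) = w χ * d χ / D := fun χ => by
    have h := hw χ
    have h' : (w χ : ℂ) * d χ = D * X χ := by exact_mod_cast h
    rw [h']
    field_simp
  have hw0 : ∀ χ, χ ∉ B → w χ = 0 := by
    intro χ hχ
    have h6 := hw χ
    rw [hB χ hχ, mul_zero] at h6
    refine (mul_eq_zero.1 h6).resolve_right ?_
    have h7 := hd0 χ
    exact_mod_cast h7
  have h1 : (centralizer ({(1 : G)} : Set G)).index = 1 := by
    rw [Subgroup.index_eq_one]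
    exact eq_top_iff.2 fun g _ => by rw [mem_centralizer_singleton_iff]; simp
  have s1 : ∑ χ : IrrCharacter G, (d χ : ℂ) * X χ = 0 := by
    have h := Counting.sum_irr_one_mul z
    rw [if_neg hz1] at h
    rw [← h]
    exact Finset.sum_congr rfl fun χ _ => by rw [hd, hX]
  have s2 : ∑ χ : IrrCharacter G, (d χ : ℂ) * w χ * X χ = Nat.card G := by
    have h := card_class_mul z 1 z
    have h0 : Nat.card {x : G × G // IsConj z x.1 ∧ IsConj (1 : G) x.2 ∧ x.1 * x.2 = z} = 1 := by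
      rw [Nat.card_eq_one_iff_unique]
      refine ⟨⟨fun x y => ?_⟩, ⟨⟨(z, 1), IsConj.refl z, IsConj.refl 1, mul_one z⟩⟩⟩
      obtain ⟨⟨x1, x2⟩, -, hx2, hx⟩ := x
      obtain ⟨⟨y1, y2⟩, -, hy2, hy⟩ := y
      simp only at hx2 hy2 hx hy
      rw [isConj_one_right] at hx2 hy2
      subst hx2 hy2
      rw [mul_one] at hx hy
      subst hx hy
      rfl
    rw [h0, hD, h1] at h
    have h' : ∑ χ : IrrCharacter G, (χ : G → ℂ) z * (χ : G → ℂ) 1 * conj ((χ : G → ℂ) z) / (χ : G → ℂ) 1 =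
        ∑ χ : IrrCharacter G, (D : ℂ)⁻¹ * ((d χ : ℂ) * w χ * X χ) := by
      refine Finset.sum_congr rfl fun χ _ => ?_
      have := hd0 χ
      rw [hd, hX, map_intCast, hX']
      field_simp
    rw [h', ← Finset.mul_sum] at h
    push_cast at h
    field_simp at h
    exact h.symm
  have s2' : ∑ χ : IrrCharacter G, (d χ : ℂ) * w χ * Y χ = 0 := by
    have h := card_class_mul z 1 a
    have h0 : Nat.card {x : G × G // IsConj z x.1 ∧ IsConj (1 : G) x.2 ∧ x.1 * x.2 = a} = 0 := by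
      rw [Nat.card_eq_zero]
      refine Or.inl ⟨fun x => hza ?_⟩
      obtain ⟨⟨x1, x2⟩, hx1, hx2, hx⟩ := x
      simp only at hx1 hx2 hx
      rw [isConj_one_right] at hx2
      subst hx2
      rw [mul_one] at hx
      rwa [hx] at hx1
    rw [h0, hD, h1] at h
    have h' : ∑ χ : IrrCharacter G, (χ : G → ℂ) z * (χ : G → ℂ) 1 * conj ((χ : G → ℂ) a) / (χ : G → ℂ) 1 =
        ∑ χ : IrrCharacter G, (D : ℂ)⁻¹ * ((d χ : ℂ) * w χ * Y χ) := by
      refine Finset.sum_congr rfl fun χ _ => ?_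
      have := hd0 χ
      rw [hd, hX, hY, map_intCast, hX']
      field_simp
    rw [h', ← Finset.mul_sum] at h
    push_cast at h
    have h3 : (D : ℂ) * 1 / (Nat.card G : ℂ) * (D : ℂ)⁻¹ ≠ 0 :=
      mul_ne_zero (div_ne_zero (by simpa using hD0) hG) (inv_ne_zero hD0)
    rw [← mul_assoc] at h
    exact (mul_eq_zero.1 h.symm).resolve_left h3
  have s3 : ∑ χ : IrrCharacter G, (d χ : ℂ) * w χ ^ 2 * X χ = Nat.card G * N2 := by
    have h := card_class_mul z z z
    rw [h2, hD] at h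
    have h' : ∑ χ : IrrCharacter G, (χ : G → ℂ) z * (χ : G → ℂ) z * conj ((χ : G → ℂ) z) / (χ : G → ℂ) 1 =
        ∑ χ : IrrCharacter G, ((D : ℂ) ^ 2)⁻¹ * ((d χ : ℂ) * w χ ^ 2 * X χ) := by
      refine Finset.sum_congr rfl fun χ _ => ?_
      have := hd0 χ
      rw [hd, hX, map_intCast, hX']
      field_simp
    rw [h', ← Finset.mul_sum] at h
    rw [h]
    field_simp
  have s4 : ∑ χ : IrrCharacter G, (d χ : ℂ) * w χ ^ 2 * Y χ = Nat.card G * Na := by
    have h := card_class_mul z z a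
    rw [ha, hD] at h
    have h' : ∑ χ : IrrCharacter G, (χ : G → ℂ) z * (χ : G → ℂ) z * conj ((χ : G → ℂ) a) / (χ : G → ℂ) 1 =
        ∑ χ : IrrCharacter G, ((D : ℂ) ^ 2)⁻¹ * ((d χ : ℂ) * w χ ^ 2 * Y χ) := by
      refine Finset.sum_congr rfl fun χ _ => ?_
      have := hd0 χ
      rw [hd, hX, hY, map_intCast, hX']
      field_simp
    rw [h', ← Finset.mul_sum] at h
    rw [h]
    field_simp
  have e1 : ∑ χ : IrrCharacter G with χ ∈ B, (d χ : ℂ) * (D - w χ) ^ 2 * (X χ - Y χ) =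
      ∑ χ : IrrCharacter G, ((D : ℂ) ^ 2 * ((d χ : ℂ) * X χ) - 2 * D * ((d χ : ℂ) * w χ * X χ) + 2 * D * ((d χ : ℂ) * w χ * Y χ)
        + (d χ : ℂ) * w χ ^ 2 * X χ - (d χ : ℂ) * w χ ^ 2 * Y χ) - (D : ℂ) ^ 2 * ∑ χ : IrrCharacter G with χ ∈ B, (d χ : ℂ) * Y χ := by
    rw [Finset.mul_sum, Finset.sum_filter, Finset.sum_filter, ← Finset.sum_sub_distrib]
    refine Finset.sum_congr rfl fun χ _ => ?_
    by_cases hχ : χ ∈ B
    · rw [if_pos hχ, if_pos hχ]
      ring
    · rw [if_neg hχ, if_neg hχ, hw0 χ hχ, hB χ hχ]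
      simp
  have key : ((∑ χ : IrrCharacter G with χ ∈ B, d χ * (D - w χ) ^ 2 * (X χ - Y χ) : ℤ) : ℂ) =
      ((Nat.card G * (N2 - Na - 2 * D) : ℤ) : ℂ) := by
    push_cast
    rw [e1, hBY, Finset.sum_sub_distrib, Finset.sum_add_distrib, Finset.sum_add_distrib, Finset.sum_sub_distrib,
      ← Finset.mul_sum, ← Finset.mul_sum, ← Finset.mul_sum, s1, s2, s2', s3, s4]
    ring
  exact_mod_cast key

variable {p : ℕ} [hp : Fact p.Prime] {z : G} {R : Subgroup G}

/-- **The mixed moment test** (helper994). -/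
theorem mixed {M : Ideal AlgInt} (hM : IsPModular p M) (H : Loc p z R)
    (hC : H104.EB.COne.OneBlock M (centralizer ({z} : Set G))) {a : G} (hao : orderOf a = p)
    (har : ∀ k : ℕ, ¬ p ∣ k → IsConj a (a ^ k)) (hza : ¬ IsConj z a) {D N2 Na : ℕ}
    (hD : (centralizer ({z} : Set G)).index = D)
    (h2 : Nat.card {x : G × G // IsConj z x.1 ∧ IsConj z x.2 ∧ x.1 * x.2 = z} = N2)
    (ha : Nat.card {x : G × G // IsConj z x.1 ∧ IsConj z x.2 ∧ x.1 * x.2 = a} = Na)
    (ht : ¬ ((p : ℤ) ^ 2 ∣ N2 - Na - 2 * D)) :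
    ∃ χ : IrrCharacter G, χ ∈ principalBlock M G ∧ p ∣ charDegree (χ : G → ℂ) := by
  classical
  by_contra hcon
  push Not at hcon
  apply ht
  have _ := Fintype.ofFinite G
  have : Finite (IrrCharacter G) := finite_irr
  have _ := Fintype.ofFinite (IrrCharacter G)
  have hz1 : z ≠ 1 := by
    intro h
    have := H.oz
    rw [h, orderOf_one] at this
    exact hp.out.one_lt.ne this
  have hpG : p ∣ Nat.card G := by
    rw [← H.oz]
    exact orderOf_dvd_natCard z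
  have hval : ∀ {y : G}, (∀ k : ℕ, ¬ p ∣ k → IsConj y (y ^ k)) → ∀ χ : IrrCharacter G, ∃ k : ℤ, (χ : G → ℂ) y = k := by
    refine fun {y} hy χ => H30.OZ.exists_int_val (fun k hk => hy k ?_) χ
    intro hd
    exact hp.out.one_lt.ne' (Nat.eq_one_of_dvd_coprimes hk hd hpG)
  choose X hX using hval H.rat
  choose Y hY using hval har
  choose w hw using fun χ : IrrCharacter G => exists_omega χ (hX χ)
  have hdd : ∀ χ : IrrCharacter G, (χ : G → ℂ) 1 = ((charDegree (χ : G → ℂ) : ℤ) : ℂ) := by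
    intro χ
    obtain ⟨n, hn0, hn⟩ := isIrr_apply_one χ.2
    have : charDegree (χ : G → ℂ) = n := by
      unfold charDegree
      rw [hn]
      simp
    rw [this, hn]
    simp
  have hw' : ∀ χ : IrrCharacter G, w χ * (charDegree (χ : G → ℂ) : ℤ) = D * X χ := by
    intro χ
    have h := hw χ
    rw [hdd, hX, hD] at h
    exact_mod_cast h
  have hB : ∀ χ : IrrCharacter G, χ ∉ principalBlock M G → X χ = 0 := by
    intro χ hχ
    have h1 := H104.EB.COne.vanish hM χ hχ z ⟨1, by rw [H.oz, pow_one]⟩ hC 1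
      (by unfold IsPRegular; rw [orderOf_one]; exact hp.out.one_lt.ne' ∘ Nat.dvd_one.1) (Commute.one_right z)
    rw [mul_one, hX] at h1
    exact_mod_cast h1
  have hBY : ∑ χ : IrrCharacter G with χ ∈ principalBlock M G, ((charDegree (χ : G → ℂ) : ℤ) : ℂ) * Y χ = 0 := by
    have h := Blocks.Orthogonality.weak_block_orthogonality hM (principalBlock M G)
      (Blocks.Osima.memLocalRing_blockCoeff hM Blocks.PrincipalSection.isPBlock_principalBlock) (x := (1 : G)) (y := a)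
      (by rw [orderOf_one]; exact hp.out.one_lt.ne' ∘ Nat.dvd_one.1) (by rw [hao])
    rw [Blocks.Orthogonality.finsum_mem_eq_sum_filter] at h
    rw [← h]
    refine Finset.sum_congr rfl fun χ _ => ?_
    rw [hdd, hY, map_intCast]
  have hm := mixed_moment hz1 hza (principalBlock M G) hB hBY hX hY hdd hD hw' h2 ha
  have hdvd : (p : ℤ) ^ 5 ∣ ∑ χ : IrrCharacter G with χ ∈ principalBlock M G,
      (charDegree (χ : G → ℂ) : ℤ) * (D - w χ) ^ 2 * (X χ - Y χ) := by
    refine Finset.dvd_sum fun χ hχ => ?_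
    have hχ := (Finset.mem_filter.1 hχ).2
    have h1 := H.sq_dvd (isIrr_isCharacter χ.2) (hdd χ) (hX χ)
    have h4 : (p : ℤ) ^ 2 ∣ (charDegree (χ : G → ℂ) : ℤ) * (D - w χ) := by
      have : (charDegree (χ : G → ℂ) : ℤ) * (D - w χ) = D * ((charDegree (χ : G → ℂ) : ℤ) - X χ) := by
        linear_combination -(hw' χ)
      rw [this]
      exact Dvd.dvd.mul_left h1 _
    have h5 : IsCoprime ((p : ℤ) ^ 2) (charDegree (χ : G → ℂ) : ℤ) := by
      apply IsCoprime.pow_left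
      rw [Nat.isCoprime_iff_coprime]
      exact (Nat.Prime.coprime_iff_not_dvd hp.out).2 (hcon χ hχ)
    have h6 := h5.dvd_of_dvd_mul_left h4
    have h7 : (p : ℤ) ^ 4 ∣ (D - w χ) ^ 2 := by
      have := pow_dvd_pow_of_dvd h6 2
      rwa [← pow_mul] at this
    have h8 : (p : ℤ) ∣ X χ - Y χ := by
      have h9 := p_dvd hao har (isIrr_isCharacter χ.2) (hdd χ) (hY χ)
      have h10 : (p : ℤ) ∣ (charDegree (χ : G → ℂ) : ℤ) - X χ := (Dvd.intro_left _ (by ring : (p : ℤ) * p = (p : ℤ) ^ 2)).trans h1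
      have h11 : X χ - Y χ = ((charDegree (χ : G → ℂ) : ℤ) - Y χ) - ((charDegree (χ : G → ℂ) : ℤ) - X χ) := by ring
      rw [h11]
      exact dvd_sub h9 h10
    rw [show (5 : ℕ) = 4 + 1 from rfl, pow_succ]
    exact mul_dvd_mul (Dvd.dvd.mul_left h7 _) h8
  rw [hm] at hdvd
  obtain ⟨g, hg, hpg⟩ : ∃ g : ℕ, Nat.card G = p ^ 3 * g ∧ ¬ p ∣ g := by
    obtain ⟨g, hg⟩ : p ^ 3 ∣ Nat.card G := by rw [← H.cR]; exact card_subgroup_dvd_card R
    refine ⟨g, hg, fun h => H.h4 ?_⟩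
    rw [hg, pow_succ]
    exact mul_dvd_mul_left _ h
  have h4 : (p : ℤ) ^ 3 * (p : ℤ) ^ 2 ∣ (p : ℤ) ^ 3 * ((g : ℕ) * (N2 - Na - 2 * D)) := by
    have : (Nat.card G : ℤ) * (N2 - Na - 2 * D) = (p : ℤ) ^ 3 * ((g : ℕ) * (N2 - Na - 2 * D)) := by
      rw [hg]
      push_cast
      ring
    rw [← this, ← pow_add]
    exact hdvd
  have hp0 : ((p : ℤ) ^ 3) ≠ 0 := pow_ne_zero _ (by exact_mod_cast hp.out.ne_zero)
  have h5 := Int.dvd_of_mul_dvd_mul_left hp0 h4
  have h6 : IsCoprime ((p : ℤ) ^ 2) ((g : ℕ) : ℤ) := by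
    apply IsCoprime.pow_left
    rw [Nat.isCoprime_iff_coprime]
    exact (Nat.Prime.coprime_iff_not_dvd hp.out).2 hpg
  exact h6.dvd_of_dvd_mul_left h5

end Cfsg.Agent.H702.E4
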